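import Cfsg.Agent.RY.Defs
import Cfsg.Agent.S0028

set_option autoImplicit false
set_option linter.unusedSectionVars false

namespace Cfsg.Agent.RY.Lift2

open Cfsg.Agent.DT (cm nor cen cj)

universe u
variable {G : Type u} [Group G] [Finite G] {E K : Subgroup G}

theorem iv_pow {H : Type*} [Group H] {t y : H} (h : Iv t y) {m : ℕ} (hm : Odd m) : Iv (t ^ m) y := by
  obtain ⟨j, rfl⟩ := hm
  unfold Iv at h ⊢
  have h2 : t * y⁻¹ * t⁻¹ = y := by
    have := congrArg (·⁻¹) h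
    simpa [mul_assoc] using this
  have hc : Commute (t ^ 2) y := by
    have e : t ^ 2 * y * (t ^ 2)⁻¹ = y := by
      calc t ^ 2 * y * (t ^ 2)⁻¹ = t * (t * y * t⁻¹) * t⁻¹ := by rw [pow_two]; group
        _ = y := by rw [h, h2]
    exact mul_inv_eq_iff_eq_mul.1 e
  have hc2 : (t ^ 2) ^ j * y * ((t ^ 2) ^ j)⁻¹ = y := mul_inv_eq_iff_eq_mul.2 (hc.pow_left j).eq
  calc t ^ (2 * j + 1) * y * (t ^ (2 * j + 1))⁻¹
      = t * ((t ^ 2) ^ j * y * ((t ^ 2) ^ j)⁻¹) * t⁻¹ := by rw [pow_succ', pow_mul]; group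
    _ = y⁻¹ := by rw [hc2, h]

theorem iv_two {t y : G} (h : Iv t y) : ∃ m k : ℕ, Odd m ∧ (t ^ m) ^ 2 ^ k = 1 ∧ Iv (t ^ m) y := by
  obtain ⟨k, m, hm, e⟩ := Nat.exists_eq_two_pow_mul_odd (orderOf_pos t).ne'
  exact ⟨m, k, hm, by rw [← pow_mul, mul_comm, ← e, pow_orderOf_eq_one], iv_pow h hm⟩

theorem pq {Q D : Subgroup G} (hQ : IsPGroup 2 Q) (hD : IsPGroup 2 D) (hDQ : D ≤ nor Q) {y : G} (hy : Odd (orderOf y))
    (hyQ : y ∈ nor Q) (hyD : y ∈ ceS D) (h : ∀ q ∈ Q, q ∈ ceS D → Commute q y) : y ∈ ceS Q := by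
  haveI : Fact (Nat.Prime 2) := ⟨Nat.prime_two⟩
  have key : ∀ a : G, Commute a y → a ∈ Subgroup.centralizer (Subgroup.zpowers y : Set G) := by
    intro a ha
    rw [Subgroup.mem_centralizer_iff]
    rintro _ ⟨k, rfl⟩
    exact (ha.zpow_right k).eq.symm
  refine S0028.result 2 D (Subgroup.zpowers y) Q hD ?_ hQ ?_ hDQ (Subgroup.zpowers_le.2 hyQ) ?_
    (Subgroup.mem_zpowers y)
  · rw [Nat.card_zpowers]
    exact Nat.coprime_two_right.2 hy
  · intro d hd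
    exact key d (Subgroup.mem_centralizer_iff.1 hyD d hd)
  · intro q hq
    exact key q (h q hq.1 hq.2)

end Cfsg.Agent.RY.Lift2
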