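import Cfsg.Agent.RY.Defs
import Cfsg.Agent.H24.FpfPerfect
import Cfsg.Agent.H1.UniqueSub

set_option autoImplicit false

namespace Cfsg.Agent.RY.U2a

open Cfsg.Agent.DT (cm nor cen cj)

universe u

theorem aut_five {R : Type*} [Group R] [Finite R] (hR : IsPGroup 2 R)
    (hu : ∀ x y : R, orderOf x = 2 → orderOf y = 2 → x = y) (α : MulAut R) (h5 : α ^ 5 = 1) : α = 1 := by
  have hd : orderOf α ∣ 5 := orderOf_dvd_of_pow_eq_one h5
  have hα : (orderOf α).Coprime 2 := Nat.Coprime.coprime_dvd_left hd (by norm_num)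
  rcases H1.cyclic_or_quaternion hR hu with hc | ⟨n, ⟨e⟩⟩
  · exact H24.mulAut_eq_one_of_isCyclic hR α hα
  rcases n with _ | n
  · obtain ⟨f⟩ := S3742.result
    have h1 : orderOf α ∣ 24 := by
      rw [← ((MulAut.congr e).trans f).orderOf_eq α]
      refine (orderOf_dvd_natCard _).trans ?_
      rw [Nat.card_perm, Nat.card_eq_fintype_card, Fintype.card_fin]
      decide
    exact orderOf_eq_one_iff.mp (Nat.eq_one_of_dvd_coprimes (by norm_num : Nat.Coprime 5 24) hd h1)
  · have := H24.mulAut_quaternion_eq_one (MulAut.congr e α) (by rwa [(MulAut.congr e).orderOf_eq])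
    exact (MulAut.congr e).injective (by rw [this, map_one])

variable {G : Type u} [Group G] [Finite G]

theorem uq_five {R : Subgroup G} (hR : IsPGroup 2 R) {t x : G} (hu : ∀ u ∈ R, u * u = 1 → u = 1 ∨ u = t)
    (hx : x ∈ nor R) (h5 : orderOf x = 5) : x ∈ ceS R := by
  have key : ∀ a : R, orderOf a = 2 → (a : G) = t := by
    intro a ha
    have h1 : a * a = 1 := by rw [← sq, ← ha, pow_orderOf_eq_one]
    refine (hu a a.2 (congrArg Subtype.val h1)).resolve_left fun k => ?_
    rw [Subtype.ext (p := (· ∈ R)) (a2 := 1) k, orderOf_one] at ha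
    exact absurd ha (by norm_num)
  have h1 : R.normalizerMonoidHom ⟨x, hx⟩ = 1 := by
    refine aut_five hR (fun a b ha hb => Subtype.ext ((key a ha).trans (key b hb).symm)) _ ?_
    rw [← map_pow, show (⟨x, hx⟩ : nor R) ^ 5 = 1 from Subtype.ext (by
      show x ^ 5 = 1
      rw [← h5, pow_orderOf_eq_one]), map_one]
  have h2 : (⟨x, hx⟩ : nor R) ∈ R.normalizerMonoidHom.ker := h1
  rw [Subgroup.normalizerMonoidHom_ker] at h2
  exact h2

end Cfsg.Agent.RY.U2a
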