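import Cfsg.Agent.RY.Defs
import Cfsg.Agent.H24.FpfPerfect
import Cfsg.Agent.S0016

set_option autoImplicit false
set_option linter.unusedSectionVars false

namespace Cfsg.Agent.RY.U2b

open Cfsg.Agent.DT (cm nor cen cj)

universe u
variable {G : Type u} [Group G] [Finite G] {E K : Subgroup G}

theorem aut {R : Type*} [Group R] [Finite R] (hR : IsPGroup 2 R)
    (hu : ∀ H K : Subgroup R, Nat.card H = 2 → Nat.card K = 2 → H = K)
    (α : MulAut R) (h5 : orderOf α ∣ 5) : α = 1 := by
  haveI : Fact (Nat.Prime 2) := ⟨Nat.prime_two⟩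
  have hα : (orderOf α).Coprime 2 := Nat.Coprime.coprime_dvd_left h5 (by decide)
  rcases S0016.result 2 hR hu with hc | ⟨-, n, ⟨e⟩⟩
  · exact H24.mulAut_eq_one_of_isCyclic hR α hα
  rcases n with _ | _ | n
  · have : IsCyclic R :=
      have := QuaternionGroup.quaternionGroup_one_isCyclic
      isCyclic_of_surjective _ e.symm.surjective
    exact H24.mulAut_eq_one_of_isCyclic hR α hα
  · obtain ⟨f⟩ := S3742.result
    have h1 : orderOf α ∣ 24 := by
      rw [← ((MulAut.congr e).trans f).orderOf_eq α]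
      refine (orderOf_dvd_natCard _).trans ?_
      rw [Nat.card_perm, Nat.card_eq_fintype_card, Fintype.card_fin]
      decide
    exact orderOf_eq_one_iff.mp (Nat.eq_one_of_dvd_coprimes (by decide) h5 h1)
  · apply (MulAut.congr e).injective
    rw [map_one]
    apply H24.mulAut_quaternion_eq_one
    rwa [(MulAut.congr e).orderOf_eq]

theorem uq_five {R : Subgroup G} (hR : IsPGroup 2 R) {t x : G} (hu : ∀ u ∈ R, u * u = 1 → u = 1 ∨ u = t)
    (hx : x ∈ nor R) (h5 : orderOf x = 5) : x ∈ ceS R := by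
  have h1 : orderOf (R.normalizerMonoidHom ⟨x, hx⟩) ∣ 5 := by
    refine (orderOf_map_dvd _ _).trans ?_
    rw [← Subgroup.orderOf_coe, ← h5]
  have k : ∀ H : Subgroup R, Nat.card H = 2 → ∀ a : R, a ∈ H ↔ a = 1 ∨ (a : G) = t := fun H hH a => by
    have sq : ∀ b ∈ H, b = 1 ∨ (b : G) = t := fun b hb => by
      have : b ^ 2 = 1 := orderOf_dvd_iff_pow_eq_one.1 (hH ▸ H.orderOf_dvd_natCard hb)
      rw [pow_two] at this
      exact (hu b b.2 (congrArg Subtype.val this)).imp_left Subtype.ext
    refine ⟨sq a, ?_⟩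
    rintro (rfl | e)
    · exact one_mem _
    · have : H ≠ ⊥ := fun e => by simp [e] at hH
      obtain ⟨⟨b, hb⟩, b1⟩ := Subgroup.ne_bot_iff_exists_ne_one.1 this
      rcases sq b hb with e' | e'
      · exact absurd (Subtype.ext e') b1
      · rwa [show a = b from Subtype.ext (e.trans e'.symm)]
  have h2 := aut hR (fun H K a b => Subgroup.ext fun c => (k H a c).trans (k K b c).symm) _ h1
  intro q hq
  have : x * q * x⁻¹ = q := congrArg Subtype.val (DFunLike.congr_fun h2 (⟨q, hq⟩ : R))
  exact (mul_inv_eq_iff_eq_mul.mp this).symm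

end Cfsg.Agent.RY.U2b
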